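/-!
# Data for the Schur multiplier of the Tits group (helper56)

`symW`: the eight symbols `x, x⁻¹, y, y⁻¹, s, s⁻¹, t, t⁻¹` of the chain certificate as words in the
four generating involutions of the Tits group on 4060 points; `genW`: the four involutions as
words in the symbols; `a5, b5, t5`: a Sylow 5-subgroup `⟨a5, b5⟩` and an involution inverting `a5`
and centralising `b5`; `a3, b3, n3`: generators of a Sylow 3-subgroup and an involution inverting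
both.
-/

set_option autoImplicit false

namespace Cfsg.Agent.Helper56.TitsMult

def symW : List (List Nat) :=
  [[0, 1],
  [1, 0],
  [2, 1, 3, 0, 2, 0, 3, 2, 0, 3, 1, 2],
  [2, 1, 3, 0, 2, 3, 0, 2, 0, 3, 1, 2],
  [3, 2, 3, 0, 1, 3, 2, 3],
  [3, 2, 3, 1, 0, 3, 2, 3],
  [0, 3],
  [3, 0]]

def genW : List (List Nat) :=
  [[5, 2, 5, 7, 1, 6, 1, 7, 5, 2],
  [5, 6, 5, 6, 5, 2, 1, 5, 7, 2],
  [7, 3, 5, 3, 0, 5, 3, 5, 5, 6],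
  [2, 4, 4, 6, 1, 7, 2, 4, 4]]

def a5 : List Nat := [1, 3, 0, 2, 1, 3, 2, 1, 3, 1, 0, 1, 0, 1, 0, 1, 0, 3]

def b5 : List Nat := [1, 2, 3, 2, 3, 2]

def t5 : List Nat := [3, 1, 0, 2, 1, 3, 1, 2, 3, 2, 0, 3, 0, 2, 3, 1, 2, 0, 1, 3, 0, 2, 1, 0, 1, 2, 0, 2, 1, 3, 0, 1, 2, 3, 0, 2, 1, 0, 1, 2, 0, 2, 1, 3, 0, 1, 2, 1]

def a3 : List Nat := [1, 0, 2, 1, 3, 2, 3, 1, 0, 3, 1, 0, 2, 3, 0]

def b3 : List Nat := [1, 0, 3, 0, 1, 0, 1, 2, 3, 2, 3, 2, 3, 2, 0, 3, 0, 1]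

def n3 : List Nat := [0, 1, 0, 1, 3, 1, 0, 3, 2, 3, 2, 3, 0, 1, 3, 1, 0, 1]

end Cfsg.Agent.Helper56.TitsMult
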