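import Cfsg.Agent.Helper56.Tits.TwoChk
import Cfsg.Agent.Helper56.Tits.MultChain
import Cfsg.Agent.Helper56.Tits.MultData
import Cfsg.Agent.Helper89.Stem3

/-!
# The Schur multiplier of the Tits group is trivial (helper56)

`tits_mult : HasCyclicSchurMultiplier TitsGroup 1`, with the stem-extension toolkit of helper89:
the primes `p ≥ 7` by cyclic Sylow subgroups, `p = 5` and `p = 3` by explicit Sylow subgroups with
an inverting involution, and `p = 2` by the chain certificate of `MultChain.lean` along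
`13:3 < L3(3) < ²F₄(2)'`.  All identities between words in the generators are checked on the base
`2305, 2306, 1` of the permutation group on 4060 points (`word_eq`).
-/

set_option autoImplicit false

namespace Cfsg.Agent.Helper56.TitsMult

open Cfsg.Lie Cfsg.Agent.Helper28 Cfsg.Agent.Helper56.J3 Cfsg.Agent.Helper56.Ru
  Cfsg.Agent.Helper56.Tits Cfsg.Agent.Helper89

attribute [local irreducible] Cfsg.Agent.Helper56.Ru.gen Cfsg.Agent.Helper56.Ru.fz

/-- the letters as elements of the Tits group `Gk gen 4` -/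
noncomputable def g4 (c : ℕ) : Gk gen 4 := if h : c < 4 then ⟨gen c, gen_mem_Gk gen h⟩ else 1

theorem coe_prod_g4 (w : List ℕ) (h : ∀ k ∈ w, k < 4) :
    (((w.map g4).prod : Gk gen 4) : Equiv.Perm (Fin 4060)) = (w.map gen).prod := by
  induction w with
  | nil => rfl
  | cons a w ih =>
    rw [List.map_cons, List.prod_cons, List.map_cons, List.prod_cons, Subgroup.coe_mul,
      ih (fun k hk => h k (List.mem_cons_of_mem _ hk))]
    congr 1
    unfold g4
    rw [dif_pos (h a List.mem_cons_self)]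

/-- the element of the Prelude Tits group given by a word -/
noncomputable def te (φ : TitsGroup ≃* Gk gen 4) (w : List ℕ) : TitsGroup :=
  φ.symm ((w.map g4).prod)

theorem te_nil (φ : TitsGroup ≃* Gk gen 4) : te φ [] = 1 := by
  unfold te
  rw [List.map_nil, List.prod_nil, map_one]

theorem te_append (φ : TitsGroup ≃* Gk gen 4) (w₁ w₂ : List ℕ) :
    te φ (w₁ ++ w₂) = te φ w₁ * te φ w₂ := by
  unfold te
  rw [List.map_append, List.prod_append, map_mul]

/-- Boolean test: both words have letters below 4 and agree on the base -/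
noncomputable def eqC (w₁ w₂ : List ℕ) : Bool := let4 w₁ && let4 w₂ && eqW w₁ w₂

/-- Boolean test: both words have letters below 4 and differ on the base -/
noncomputable def neC (w₁ w₂ : List ℕ) : Bool := let4 w₁ && let4 w₂ && !(eqW w₁ w₂)

theorem te_eqC (φ : TitsGroup ≃* Gk gen 4) (w₁ w₂ : List ℕ) (h : eqC w₁ w₂ = true) :
    te φ w₁ = te φ w₂ := by
  unfold eqC at h
  simp only [Bool.and_eq_true] at h
  unfold te
  congr 1
  apply Subtype.ext
  rw [coe_prod_g4 w₁ (let4_spec w₁ h.1.1), coe_prod_g4 w₂ (let4_spec w₂ h.1.2)]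
  exact word_eq w₁ w₂ (let4_spec w₁ h.1.1) (let4_spec w₂ h.1.2) h.2

theorem te_neC (φ : TitsGroup ≃* Gk gen 4) (w₁ w₂ : List ℕ) (h : neC w₁ w₂ = true) :
    te φ w₁ ≠ te φ w₂ := by
  unfold neC at h
  simp only [Bool.and_eq_true, Bool.not_eq_true'] at h
  intro he
  unfold te at he
  have h' := congrArg Subtype.val (φ.symm.injective he)
  rw [coe_prod_g4 w₁ (let4_spec w₁ h.1.1), coe_prod_g4 w₂ (let4_spec w₂ h.1.2)] at h'
  have h'' := eqW_of_eq w₁ w₂ (let4_spec w₁ h.1.1) (let4_spec w₂ h.1.2) h'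
  rw [h.2] at h''
  exact absurd h'' (by decide)

theorem nthL_ge : ∀ (l : List (List ℕ)) (i : ℕ), l.length ≤ i → nthL l i = []
  | [], i, _ => nthL_nil i
  | _ :: _, 0, h => absurd h (by simp)
  | a :: l, i + 1, h => by
    rw [nthL_cons_succ]
    exact nthL_ge l i (by simpa using h)

/-- the four generators `x, y, s, t` of the chain in the Prelude Tits group -/
noncomputable def lT (φ : TitsGroup ≃* Gk gen 4) : List TitsGroup :=
  [te φ (nthL symW 0), te φ (nthL symW 2), te φ (nthL symW 4), te φ (nthL symW 6)]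

theorem symW_inv : eqC (nthL symW 0 ++ nthL symW 1) [] = true ∧
    eqC (nthL symW 2 ++ nthL symW 3) [] = true ∧ eqC (nthL symW 4 ++ nthL symW 5) [] = true ∧
    eqC (nthL symW 6 ++ nthL symW 7) [] = true := by
  decide +kernel

theorem gl_odd {G : Type*} [Group G] (l : List G) (i : ℕ) : gl l (2 * i + 1) = (l.getD i 1)⁻¹ := by
  unfold gl
  rw [if_neg (by omega)]
  congr 2
  omega

theorem symW_length : symW.length = 8 := rfl

theorem gl_eq (φ : TitsGroup ≃* Gk gen 4) (j : ℕ) : gl (lT φ) j = te φ (nthL symW j) := by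
  obtain ⟨i, rfl | rfl⟩ : ∃ i, j = 2 * i ∨ j = 2 * i + 1 := ⟨j / 2, by omega⟩
  · rw [Chain.gl_two_mul]
    by_cases hi : i < 4
    · interval_cases i <;> rfl
    · rw [List.getD_eq_default _ _ (by show 4 ≤ i; omega),
        nthL_ge symW _ (by rw [symW_length]; omega), te_nil]
  · rw [gl_odd]
    by_cases hi : i < 4
    · have h := symW_inv
      interval_cases i
      · exact inv_eq_of_mul_eq_one_right (by
          show te φ (nthL symW 0) * te φ (nthL symW 1) = 1
          rw [← te_append, te_eqC φ _ _ h.1, te_nil])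
      · exact inv_eq_of_mul_eq_one_right (by
          show te φ (nthL symW 2) * te φ (nthL symW 3) = 1
          rw [← te_append, te_eqC φ _ _ h.2.1, te_nil])
      · exact inv_eq_of_mul_eq_one_right (by
          show te φ (nthL symW 4) * te φ (nthL symW 5) = 1
          rw [← te_append, te_eqC φ _ _ h.2.2.1, te_nil])
      · exact inv_eq_of_mul_eq_one_right (by
          show te φ (nthL symW 6) * te φ (nthL symW 7) = 1
          rw [← te_append, te_eqC φ _ _ h.2.2.2, te_nil])
    · rw [List.getD_eq_default _ _ (by show 4 ≤ i; omega), inv_one,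
        nthL_ge symW _ (by rw [symW_length]; omega), te_nil]

/-- a word in the eight symbols as a word in the four involutions -/
noncomputable def expW : List ℕ → List ℕ
  | [] => []
  | j :: w => nthL symW j ++ expW w

theorem ev_eq (φ : TitsGroup ≃* Gk gen 4) (w : List ℕ) :
    ev (gl (lT φ)) w = te φ (expW w) := by
  induction w with
  | nil => exact (te_nil φ).symm
  | cons j w ih =>
    show gl (lT φ) j * ev (gl (lT φ)) w = te φ (nthL symW j ++ expW w)
    rw [te_append, gl_eq, ih]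

/-- a relator in the symbols holds -/
noncomputable def relOK (w : List ℕ) : Bool := eqC (expW w) []

theorem rels_ok : listAll (Chain.powW ps) relOK = true ∧ listAll L0.ws relOK = true ∧
    listAll L1.ws relOK = true ∧ listAll L2.ws relOK = true := by
  decide +kernel

theorem ev_one_of_relOK (φ : TitsGroup ≃* Gk gen 4) (w : List ℕ) (h : relOK w = true) :
    ev (gl (lT φ)) w = 1 := by
  rw [ev_eq, te_eqC φ _ _ h, te_nil]

theorem hE (φ : TitsGroup ≃* Gk gen 4) : ∀ w ∈ Chain.powW ps, ev (gl (lT φ)) w = 1 :=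
  fun w hw => ev_one_of_relOK φ w ((listAll_iff _ _).mp rels_ok.1 w hw)

theorem hW (φ : TitsGroup ≃* Gk gen 4) : ∀ d ∈ Ls, ∀ w ∈ d.ws, ev (gl (lT φ)) w = 1 := by
  intro d hd w hw
  simp only [Ls, List.mem_cons, List.not_mem_nil, or_false] at hd
  rcases hd with rfl | rfl | rfl
  · exact ev_one_of_relOK φ w ((listAll_iff _ _).mp rels_ok.2.1 w hw)
  · exact ev_one_of_relOK φ w ((listAll_iff _ _).mp rels_ok.2.2.1 w hw)
  · exact ev_one_of_relOK φ w ((listAll_iff _ _).mp rels_ok.2.2.2 w hw)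

theorem genW_ok : eqC (expW (nthL genW 0)) [0] = true ∧ eqC (expW (nthL genW 1)) [1] = true ∧
    eqC (expW (nthL genW 2)) [2] = true ∧ eqC (expW (nthL genW 3)) [3] = true ∧
    listAll genW (fun w => listAll w (fun j => Nat.blt j 8)) = true := by
  decide +kernel

theorem ev_mem {G : Type*} [Group G] (g : ℕ → G) (w : List ℕ) (h : ∀ j ∈ w, j < 8) :
    ev g w ∈ Subgroup.closure (g '' Set.Iio 8) := by
  induction w with
  | nil => exact Subgroup.one_mem _
  | cons j w ih =>
    exact Subgroup.mul_mem _ (Subgroup.subset_closure ⟨j, h j List.mem_cons_self, rfl⟩)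
      (ih (fun k hk => h k (List.mem_cons_of_mem _ hk)))

theorem genW_length : genW.length = 4 := rfl

theorem te_gen_mem (φ : TitsGroup ≃* Gk gen 4) (c : ℕ) (hc : c < 4) :
    te φ [c] ∈ Subgroup.closure (gl (lT φ) '' Set.Iio 8) := by
  have h := genW_ok
  have hw : ∀ j ∈ nthL genW c, j < 8 := by
    intro j hj
    have h1 := (listAll_iff _ _).mp h.2.2.2.2 _ (nthL_lt_mem genW c (by rw [genW_length]; exact hc))
    exact Nat.blt_eq.mp ((listAll_iff _ _).mp h1 j hj)
  have e : te φ [c] = ev (gl (lT φ)) (nthL genW c) := by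
    rw [ev_eq]
    symm
    interval_cases c
    · exact te_eqC φ _ _ h.1
    · exact te_eqC φ _ _ h.2.1
    · exact te_eqC φ _ _ h.2.2.1
    · exact te_eqC φ _ _ h.2.2.2.1
  rw [e]
  exact ev_mem _ _ hw

theorem gen_top (φ : TitsGroup ≃* Gk gen 4) :
    Subgroup.closure (gl (lT φ) '' Set.Iio 8) = ⊤ := by
  rw [eq_top_iff]
  intro g _
  obtain ⟨K, hK⟩ : ∃ K : Subgroup TitsGroup, K = Subgroup.closure (gl (lT φ) '' Set.Iio 8) :=
    ⟨_, rfl⟩
  rw [← hK]
  have hle : Gk gen 4 ≤ (K.map φ.toMonoidHom).map (Gk gen 4).subtype := by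
    refine (Subgroup.closure_le _).mpr ?_
    rintro _ ⟨c, hc, rfl⟩
    refine ⟨φ (te φ [c]), ⟨te φ [c], by rw [hK]; exact te_gen_mem φ c hc, rfl⟩, ?_⟩
    unfold te
    rw [MulEquiv.apply_symm_apply]
    show ((([c].map g4).prod : Gk gen 4) : Equiv.Perm (Fin 4060)) = gen c
    rw [coe_prod_g4 [c] (by
      intro k hk
      rw [List.mem_singleton] at hk
      rw [hk]
      exact hc)]
    rw [List.map_cons, List.map_nil, List.prod_cons, List.prod_nil, mul_one]
  obtain ⟨u, ⟨k, hk, rfl⟩, hu⟩ := hle (φ g).2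
  have hkg : φ k = φ g := Subtype.ext hu
  rw [← φ.injective hkg]
  exact hk

/-! ### the odd primes -/

theorem chk5 : eqC ((((a5 ++ a5) ++ a5) ++ a5) ++ a5) [] = true ∧
    eqC ((((b5 ++ b5) ++ b5) ++ b5) ++ b5) [] = true ∧ neC a5 [] = true ∧
    neC [] b5 = true ∧ neC a5 b5 = true ∧ neC (a5 ++ a5) b5 = true ∧
    neC ((a5 ++ a5) ++ a5) b5 = true ∧ neC (((a5 ++ a5) ++ a5) ++ a5) b5 = true ∧
    eqC (a5 ++ b5) (b5 ++ a5) = true ∧ eqC (t5 ++ t5) [] = true ∧
    eqC (((t5 ++ a5) ++ t5) ++ a5) [] = true ∧ eqC ((t5 ++ b5) ++ t5) b5 = true := by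
  decide +kernel

theorem chk3 : eqC ((a3 ++ a3) ++ a3) [] = true ∧ eqC ((b3 ++ b3) ++ b3) [] = true ∧
    neC (a3 ++ b3) (b3 ++ a3) = true ∧ eqC (a3 ++ (a3 ++ a3)) [] = true ∧
    eqC (b3 ++ (b3 ++ b3)) [] = true ∧
    eqC ((((a3 ++ b3) ++ (a3 ++ a3)) ++ (b3 ++ b3)) ++ a3)
      (a3 ++ (((a3 ++ b3) ++ (a3 ++ a3)) ++ (b3 ++ b3))) = true ∧
    eqC ((((a3 ++ b3) ++ (a3 ++ a3)) ++ (b3 ++ b3)) ++ b3)
      (b3 ++ (((a3 ++ b3) ++ (a3 ++ a3)) ++ (b3 ++ b3))) = true ∧
    eqC (n3 ++ n3) [] = true ∧ eqC ((n3 ++ a3) ++ n3) (a3 ++ a3) = true ∧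
    eqC ((n3 ++ b3) ++ n3) (b3 ++ b3) = true := by
  decide +kernel

theorem tits_mult : Cfsg.HasCyclicSchurMultiplier TitsGroup 1 := by
  obtain ⟨φ⟩ := tits_struct.2
  have hfin : Finite TitsGroup := Finite.of_equiv _ φ.symm.toEquiv
  have hcard : Nat.card TitsGroup = 17971200 := by
    rw [Nat.card_congr φ.toEquiv, card_G4]
  apply Stem.hasCyclicSchurMultiplier_one
  intro Γ _ _ σ hσ
  obtain ⟨hsurj, hc, hd⟩ := hσ
  apply Stem.ker_eq_bot_of_primes
  intro p hp
  have hpf : Fact p.Prime := ⟨hp⟩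
  by_cases h2 : p = 2
  · subst h2
    exact Chain.two_universal (lT φ) ps Ls ps_odd valid chained (by rw [hcard, prodN_eq])
      (by rw [lastK_eq]; exact gen_top φ) (hE φ) (hW φ) Γ σ hsurj hc hd
  by_cases h3 : p = 3
  · subst h3
    have h := chk3
    have hai : (te φ a3)⁻¹ = te φ (a3 ++ a3) :=
      inv_eq_of_mul_eq_one_right (by rw [← te_append, te_eqC φ _ _ h.2.2.2.1, te_nil])
    have hbi : (te φ b3)⁻¹ = te φ (b3 ++ b3) :=
      inv_eq_of_mul_eq_one_right (by rw [← te_append, te_eqC φ _ _ h.2.2.2.2.1, te_nil])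
    have hni : (te φ n3)⁻¹ = te φ n3 :=
      inv_eq_of_mul_eq_one_right (by rw [← te_append, te_eqC φ _ _ h.2.2.2.2.2.2.2.1, te_nil])
    refine Stem.not_dvd_card_ker_of_extraspecial σ hsurj hc hd (te φ a3) (te φ b3) (te φ n3)
      ?_ ?_ ?_ ?_ ?_ ?_ ?_ (by rw [hcard]; norm_num)
    · rw [pow_succ, pow_two, ← te_append, ← te_append, te_eqC φ _ _ h.1, te_nil]
    · rw [pow_succ, pow_two, ← te_append, ← te_append, te_eqC φ _ _ h.2.1, te_nil]
    · rw [← te_append, ← te_append]
      exact te_neC φ _ _ h.2.2.1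
    · rw [hai, hbi]
      simp only [← te_append]
      exact te_eqC φ _ _ h.2.2.2.2.2.1
    · rw [hai, hbi]
      simp only [← te_append]
      exact te_eqC φ _ _ h.2.2.2.2.2.2.1
    · rw [hai, hni]
      simp only [← te_append]
      exact te_eqC φ _ _ h.2.2.2.2.2.2.2.2.1
    · rw [hbi, hni]
      simp only [← te_append]
      exact te_eqC φ _ _ h.2.2.2.2.2.2.2.2.2
  by_cases h5 : p = 5
  · subst h5
    have h := chk5
    have ha5 : (te φ a5) ^ 5 = 1 := by
      rw [pow_succ, pow_succ, pow_succ, pow_two, ← te_append, ← te_append, ← te_append,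
        ← te_append, te_eqC φ _ _ h.1, te_nil]
    have hti : (te φ t5)⁻¹ = te φ t5 :=
      inv_eq_of_mul_eq_one_right (by
        rw [← te_append, te_eqC φ _ _ h.2.2.2.2.2.2.2.2.2.1, te_nil])
    refine Stem.not_dvd_card_ker_of_rank_two σ hsurj hc hd 5 (by decide) (te φ a5) (te φ b5)
      (te φ t5) ha5 ?_ ?_ ?_ ?_ ?_ ?_ (by rw [hcard]; norm_num)
    · rw [pow_succ, pow_succ, pow_succ, pow_two, ← te_append, ← te_append, ← te_append,
        ← te_append, te_eqC φ _ _ h.2.1, te_nil]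
    · rw [← te_nil φ]
      exact te_neC φ _ _ h.2.2.1
    · intro hmem
      obtain ⟨k, hk⟩ := Subgroup.mem_zpowers_iff.mp hmem
      have ha5z : (te φ a5) ^ (5 : ℤ) = 1 := by
        have hz := zpow_natCast (te φ a5) 5
        rw [ha5] at hz
        exact hz
      have hk5 : (te φ a5) ^ (k % 5) = te φ b5 := by
        rw [← zpow_eq_zpow_emod k ha5z]
        exact hk
      have h0 : 0 ≤ k % 5 := Int.emod_nonneg k (by norm_num)
      have h1 : k % 5 < 5 := Int.emod_lt_of_pos k (by norm_num)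
      obtain ⟨i, hi⟩ := Int.eq_ofNat_of_zero_le h0
      rw [hi, zpow_natCast] at hk5
      have hi5 : i < 5 := by omega
      interval_cases i
      · rw [pow_zero, ← te_nil φ] at hk5
        exact te_neC φ _ _ h.2.2.2.1 hk5
      · rw [pow_one] at hk5
        exact te_neC φ _ _ h.2.2.2.2.1 hk5
      · rw [pow_two, ← te_append] at hk5
        exact te_neC φ _ _ h.2.2.2.2.2.1 hk5
      · rw [pow_succ, pow_two, ← te_append, ← te_append] at hk5
        exact te_neC φ _ _ h.2.2.2.2.2.2.1 hk5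
      · rw [pow_succ, pow_succ, pow_two, ← te_append, ← te_append, ← te_append] at hk5
        exact te_neC φ _ _ h.2.2.2.2.2.2.2.1 hk5
    · rw [← te_append, ← te_append]
      exact te_eqC φ _ _ h.2.2.2.2.2.2.2.2.1
    · rw [hti]
      refine eq_inv_of_mul_eq_one_left ?_
      rw [← te_append, ← te_append, ← te_append, te_eqC φ _ _ h.2.2.2.2.2.2.2.2.2.2.1, te_nil]
    · rw [hti, ← te_append, ← te_append]
      exact te_eqC φ _ _ h.2.2.2.2.2.2.2.2.2.2.2
  · refine Stem.not_dvd_card_ker_of_sq σ hc hd p ?_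
    rw [hcard]
    intro hdvd
    have hN : (17971200 : ℕ) = 2 ^ 11 * 3 ^ 3 * 5 ^ 2 * 13 := by norm_num
    have hp1 : p ∣ 2 ^ 11 * 3 ^ 3 * 5 ^ 2 * 13 := by
      rw [← hN]
      exact dvd_trans (dvd_pow_self p (by norm_num)) hdvd
    rcases (Nat.Prime.dvd_mul hp).mp hp1 with hp2 | hp13
    · rcases (Nat.Prime.dvd_mul hp).mp hp2 with hp3 | hp5
      · rcases (Nat.Prime.dvd_mul hp).mp hp3 with hp4 | hp3'
        · exact h2 ((Nat.prime_dvd_prime_iff_eq hp Nat.prime_two).mp (hp.dvd_of_dvd_pow hp4))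
        · exact h3 ((Nat.prime_dvd_prime_iff_eq hp Nat.prime_three).mp (hp.dvd_of_dvd_pow hp3'))
      · exact h5 ((Nat.prime_dvd_prime_iff_eq hp Nat.prime_five).mp (hp.dvd_of_dvd_pow hp5))
    · have h13 : p = 13 := (Nat.prime_dvd_prime_iff_eq hp (by norm_num)).mp hp13
      rw [h13] at hdvd
      norm_num at hdvd

end Cfsg.Agent.Helper56.TitsMult
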